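import Mathlib
import Cfsg.Agent.Lib.SuzRec.Seven

/-!
# The Sylow 5-subgroups of the Suzuki group
-/

set_option autoImplicit false
set_option maxRecDepth 100000

namespace CfsgLib.SuzRec

open Subgroup CfsgLib.CosetEnum CfsgLib.LargeExtra CfsgLib.ExtraTwo CfsgLib.U43

variable {G : Type*} [Group G]

def uv : List (List ℕ) := [[0, 2], [14, 8, 6]]
def tw5 : List (ℕ × ℕ × List ℕ × List ℕ) := [(2, 0, [], [0, 995]), (2, 995, [18, 16], [995]), (1, 1, [12], [0, 1, 2, 3, 5, 6, 328, 367, 475, 484, 486, 492, 539, 646, 785, 794]), (1, 609, [31, 12, 2, 17], [609, 702, 895, 897, 971, 1012, 1254, 1258, 1319, 1342]), (0, 228, [28, 16], [228, 450, 750, 1231]), (1, 328, [28, 25, 2, 12], [1, 328]), (0, 299, [34, 27, 2, 12], [299]), (1, 688, [35, 28], [688]), (1, 794, [2, 31, 2, 28], [794]), (0, 370, [10, 33, 2, 12], [370])]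
def kp5 : List ℕ := [6, 31, 10, 35, 2, 22, 18, 14, 2]
def s4 : List ℕ := [8, 15, 17, 20, 18, 6]
def s3 : List (List ℕ) := [[], [], [25, 2, 0, 4, 2, 24], [0], [], [24, 2, 0, 4, 2, 24], [25, 2, 0, 4, 2, 25], [24, 2, 0, 4, 2, 25], []]
def c5 : List (List ℕ) := [[], [], [8, 14, 17, 18, 20], [8, 14, 17, 20, 18], [2], [], [25, 2, 18, 16, 20, 29, 27, 2, 22], [25, 2, 0, 4, 2, 25], [25, 2, 0, 4, 2, 24], [24, 2, 14, 20, 27, 18, 16, 2, 22], [8, 14, 17, 18, 20], [25, 2, 18, 16, 20, 29, 27, 2, 22], [24, 2, 0, 4, 2, 24], [25, 2, 0, 4, 2, 25], [22, 2, 26, 28, 20, 17, 18, 2, 24], [15, 17, 8, 18, 20], [22, 2, 18, 20, 26, 16, 15, 2, 24], [24, 2, 0, 4, 2, 24, 14, 6], [14, 27, 2, 0, 22, 2, 27, 6], [15, 24, 2, 20, 26, 18, 16, 2, 4], [6, 15], [22, 2, 18, 20, 26, 16, 15, 2, 24], [24, 2, 0, 4, 2, 24], [24, 2, 0, 4, 2, 25], [22, 2, 26, 28, 20, 17, 18, 2, 25]]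

/-- The words of the elements of `S₃`. -/
noncomputable def s3w (σ : Equiv.Perm (Fin 3)) : List ℕ := nth [] s3 (3 * (σ 0).val + (σ 1).val)

/-- Invariant sets of points. -/
noncomputable def E5 (t q : ℕ) : Bool := Nat.beq t 0 || Nat.beq t 1 && anyN 25 (fun k =>
  !Nat.beq k 0 && Nat.beq (rn (dw 5 uv k) q) q) || allN 25 fun k => Nat.beq (rn (dw 5 uv k) q) q

theorem tw5_ok : twB [] E5 kp5 tw5 [] = true := by decide +kernel
theorem s3_mul : ∀ a b, eqM mA (s3w (a * b)) (s3w a ++ s3w b) = true := by decide +kernel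
theorem s3_com : ∀ a, eqM mA (s4 ++ s3w a) (s3w a ++ s4) = true := by decide +kernel
theorem s3_inj : ∀ p : Multiplicative (ZMod 4) × Equiv.Perm (Fin 3), p = 1 ∨
    allN 25 (fun k => nqM mA (dw 5 uv k) (powW s4 p.1.toAdd.val ++ s3w p.2)) = true := by
  decide +kernel
theorem s3_nor : ∀ p : Multiplicative (ZMod 4) × Equiv.Perm (Fin 3), allL (fun w => anyN 25 fun k =>
    eqM mA (dw 5 uv k) (cjw (powW s4 p.1.toAdd.val ++ s3w p.2) w)) uv = true := by decide +kernel
theorem c5_ok : allN 25 (fun k => okM mA (dw 5 uv k) && (Nat.beq k 0 || neM mA (dw 5 uv k) &&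
    (eqM mA (cjw (nth [] c5 k) (dw 5 uv k)) [0, 2] ||
      eqM mA (cjw (nth [] c5 k) (dw 5 uv k)) [14, 8, 6]))) = true := by decide +kernel
theorem u_fix : allN 1782 (fun p => Nat.beq p 0 || Nat.beq p 995 || !Nat.beq (rn [0, 2] p) p) =
    true := by decide +kernel

theorem anyN_of {n i : ℕ} {p : ℕ → Bool} (hi : i < n) (h : p i = true) : anyN n p = true := by
  by_contra e
  have := allN_sound (n := n) (p := fun i => !p i) (by simpa [anyN] using e) i hi
  simp [h] at this

theorem allN_of {p : ℕ → Bool} : ∀ {n : ℕ}, (∀ i < n, p i = true) → allN n p = true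
  | 0, _ => rfl
  | n + 1, h => by
    change Bool.rec false (allN n p) (p n) = true
    rw [h n n.lt_succ_self]; exact allN_of fun i hi => h i (by omega)

namespace SM

variable {X : ℕ → G} {φ : G →* Equiv.Perm ℕ} (m : SM X φ)
include m

theorem spec5 : (∀ g, g ∈ gen X uv ↔ ∃ k < 25, ev X (dw 5 uv k) = g) ∧
    (∀ k < 25, ev X (dw 5 uv k) = 1 → k = 0) ∧ Nat.card (gen X uv) = 25 := by
  have h := dw_spec (X := X) (b := 5) (ws := uv) (fun u hu v hv => (ev_append ..).symm.trans
    ((m.tm.eq (by revert u v; decide +kernel)).trans (ev_append ..))) fun u hu =>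
      (ev_powW ..).symm.trans (m.tm.id (by revert u; decide +kernel))
  have h2 : ∀ k < 25, ev X (dw 5 uv k) = 1 → k = 0 := fun k hk e => by
    have := allN_sound c5_ok k hk
    simp only [Bool.and_eq_true, Bool.or_eq_true, Nat.beq_eq] at this
    exact this.2.resolve_right fun h => m.tm.ne h.1 e
  exact ⟨h.1, h2, h.2 h2⟩

theorem classes5 : ∃ A B : Subgroup G, Nat.card A = 5 ∧ Nat.card B = 5 ∧
    (∀ g : G, A.map (MulAut.conj g).toMonoidHom ≠ B) ∧ ∀ C : Subgroup G, Nat.card C = 5 →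
      ∃ g : G, C.map (MulAut.conj g).toMonoidHom = A ∨ C.map (MulAut.conj g).toMonoidHom = B := by
  have := m.finite
  have : Fact (Nat.Prime 5) := ⟨by norm_num⟩
  obtain ⟨h1, h2, h3⟩ := m.spec5
  have o : ∀ w ∈ uv, Nat.card (zpowers (ev X w)) = 5 := fun w hw => (Nat.card_zpowers _).trans
    (orderOf_eq_prime ((ev_powW ..).symm.trans (m.tm.id (by revert w; decide +kernel)))
      (m.tm.ne (by revert w; decide +kernel)))
  refine ⟨_, _, o [0, 2] (by decide), o [14, 8, 6] (by decide), fun g e => ?_, fun C hC => ?_⟩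
  · have k : ∀ p < 3, φ g⁻¹ p = 0 ∨ φ g⁻¹ p = 995 := fun p hp => by
      have l := m.lt g⁻¹ p (by omega)
      have := allN_sound u_fix _ l
      rw [Bool.or_eq_true, Bool.or_eq_true, Nat.beq_eq, Nat.beq_eq] at this
      refine this.resolve_right fun h => ?_
      have f : φ (g * ev X [0, 2] * g⁻¹) p = p := zpowers_le_of_mem (H := stabP φ p)
        ((m.fix_iff (by decide +kernel) (by omega)).1 (by clear * - hp; revert p; decide +kernel))
        (e.le (SylTools.conj_mem_map_conj (mem_zpowers _)))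
      rw [(m.fix_iff (by decide +kernel) l).2 ((φ g).injective (by simpa using f))] at h
      exact absurd h (by decide)
    have i := (φ g⁻¹).injective
    have := k 0 (by norm_num)
    have := k 1 (by norm_num)
    have := k 2 (by norm_num)
    have := i.ne (show 0 ≠ 1 by norm_num)
    have := i.ne (show 0 ≠ 2 by norm_num)
    have := i.ne (show 1 ≠ 2 by norm_num)
    omega
  · obtain ⟨c, hc⟩ := exists_prime_orderOf_dvd_card' (G := C) 5 hC.symm.dvd
    obtain ⟨g, -, hg⟩ := SylTools.exists_conj_le_of_not_dvd_relIndex (p := 5) (A := C) (H := ⊤)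
      (IsPGroup.of_card (n := 1) hC) le_top (IsPGroup.of_card (n := 2) h3) (by
        rw [relIndex_eq_of_card (n := 17933819904) le_top (by norm_num) (card_top.trans m.card) h3]
        norm_num)
    obtain ⟨k, hk, e⟩ := (h1 _).1 (hg _ c.2)
    have := allN_sound c5_ok k hk
    simp only [Bool.and_eq_true, Bool.or_eq_true, Nat.beq_eq] at this
    have s : ∀ {w}, w ∈ uv → eqM mA (cjw (nth [] c5 k) (dw 5 uv k)) w = true →
        C.map (MulAut.conj (ev X (nth [] c5 k) * g)).toMonoidHom = zpowers (ev X w) :=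
      fun hw h => (eq_of_le_of_card_ge (zpowers_le_of_mem (by
        rw [← m.tm.eq h, ev_cjw, e, conj_conj]; exact SylTools.conj_mem_map_conj c.2))
        (by rw [SylTools.card_map_conj, hC, o _ hw])).symm
    refine ⟨_, (this.2.resolve_left ?_).2.imp (s (by decide)) (s (by decide))⟩
    rintro rfl
    rw [← orderOf_coe, conj_eq_one_iff.1 e.symm] at hc
    simp at hc

theorem five [Fact (Nat.Prime 5)] (B : Sylow 5 G) (hB : gen X uv = B) :
    Nat.card (normalizer ((B : Subgroup G) : Set G)) = 600 ∧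
    Nonempty (normalizer ((B : Subgroup G) : Set G) ⧸ (B : Subgroup G).subgroupOf
      (normalizer ((B : Subgroup G) : Set G)) ≃* Multiplicative (ZMod 4) × Equiv.Perm (Fin 3)) := by
  have := m.finite
  have t := m.tm
  obtain ⟨k, k1, k2⟩ := m.count B
  rw [← hB] at k2 ⊢
  obtain ⟨s1, s2, s3⟩ := m.spec5
  have ok : ∀ k < 25, okM mA (dw 5 uv k) = true := fun k hk =>
    (Bool.and_eq_true_iff.1 (allN_sound c5_ok k hk)).1
  have h1 : Nat.card (normalizer (gen X uv : Set G)) ≤ 2560 :=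
    m.card_le (xw := []) rfl (fun g _ => Commute.one_right g) (fun g hg t p hp h => by
      simp only [E5, Bool.or_eq_true, Bool.and_eq_true] at h ⊢
      refine h.imp (Or.imp_right (And.imp_right fun h => ?_)) fun h => allN_of fun k hk => ?_
      · obtain ⟨k, hk, h⟩ := anyN_sound h
        rw [Bool.and_eq_true, m.fix_iff (ok k hk) hp] at h
        obtain ⟨j, hj, e⟩ := (s1 _).1 ((mem_normalizer_iff.1 hg _).1 ((s1 _).2 ⟨k, hk, rfl⟩))
        refine anyN_of hj (Bool.and_eq_true_iff.2 ⟨?_, ?_⟩)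
        · cases j
          · rw [s2 k hk (conj_eq_one_iff.1 e.symm)] at h
            exact absurd h.1 (by decide)
          · rfl
        · rw [m.fix_iff (ok j hj) (m.lt g p hp), e]; simp [h.2]
      · obtain ⟨j, hj, e⟩ := (s1 _).1 ((mem_normalizer_iff''.1 hg _).1 ((s1 _).2 ⟨k, hk, rfl⟩))
        have := (m.fix_iff (ok j hj) hp).1 (allN_sound h j hj)
        rw [e] at this
        rw [m.fix_iff (ok k hk) (m.lt g p hp)]
        exact (φ g⁻¹).injective (by simpa using this)) tw5_ok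
  let F := (cyc 4 (show ev X s4 ^ 4 = 1 from (ev_powW ..).symm.trans
    (t.id (by decide +kernel)))).noncommCoprod (MonoidHom.mk' (fun a => ev X (s3w a)) fun a b =>
    (t.eq (s3_mul a b)).trans (ev_append ..)) fun k a => Commute.pow_left
      ((ev_append ..).symm.trans ((t.eq (s3_com a)).trans (ev_append ..))) _
  have e : ∀ p, ev X (powW s4 p.1.toAdd.val ++ s3w p.2) = F p := fun p => by
    rw [ev_append, ev_powW]; rfl
  let ψ := (QuotientGroup.mk' ((gen X uv).subgroupOf _)).comp (F.codRestrict _ fun p =>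
    mem_normalizer_gen fun w hw => by
      obtain ⟨k, hk, h⟩ := anyN_sound (allL_sound (s3_nor p) w hw)
      exact (s1 _).2 ⟨k, hk, by rw [t.eq h, ev_cjw, e]⟩)
  have inj : Function.Injective ψ := (injective_iff_map_eq_one ψ).2 fun p hp =>
    (s3_inj p).resolve_right fun h => by
      obtain ⟨k, hk, e'⟩ := (s1 _).1 (mem_subgroupOf.1 ((QuotientGroup.eq_one_iff _).1 hp))
      exact t.nq (allN_sound h k hk) (e'.trans (e p).symm)
  have h2 : Nat.card (Multiplicative (ZMod 4) × Equiv.Perm (Fin 3)) = 24 := by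
    simp [Fintype.card_perm, Nat.factorial]
  obtain ⟨j, hj⟩ := card_dvd_of_injective ψ inj
  have h3 := card_eq_card_quotient_mul_card_subgroup ((gen X uv).subgroupOf
    (normalizer (gen X uv : Set G)))
  rw [hj, h2, Nat.card_congr (subgroupOfEquivOfLe le_normalizer).toEquiv, s3] at h3
  rw [h3] at h1 k2
  obtain rfl : j = 1 := by
    have : j ≤ 4 := by omega
    interval_cases j <;> omega
  exact ⟨h3, ⟨(MulEquiv.ofBijective ψ (inj.bijective_of_nat_card_le (by omega))).symm⟩⟩

end SM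

end CfsgLib.SuzRec
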