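import Mathlib
import Cfsg.Agent.Lib.SuzRec.Five
import Cfsg.Agent.Lib.Mathieu.Simple
import Cfsg.Prelude.Def_Transfer

/-!
# The subgroup `3⁵ : M₁₁` of the Suzuki group
-/

set_option autoImplicit false
set_option maxRecDepth 100000
set_option Elab.async false

namespace CfsgLib.SuzRec

open Subgroup CfsgLib.CosetEnum CfsgLib.LargeExtra CfsgLib.ExtraTwo CfsgLib.U43 CfsgLib.Golay
open scoped Pointwise

variable {G : Type*} [Group G]

def A5 : List (List ℕ) := [[14], [17], [18, 16, 18], [2, 28, 4, 2, 28, 34, 2, 28], [35, 2, 17, 22, 4, 2, 34]]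
def L22 : List ℕ := [1, 2, 3, 6, 9, 18, 27, 44, 54, 76, 81, 97, 113, 127, 147, 161, 162, 185, 202, 213, 223, 227]
def r22 : List ℕ := [0, 1, 14, 24, 26, 28, 34, 38, 43, 48, 49, 54, 57, 65, 66, 73, 78, 84, 86, 88, 115, 151]
def yc : List ℕ := [0, 1, 27, 97, 127, 0, 44, 0, 147, 81, 0, 0, 223, 161, 0, 0, 3, 0, 9, 0, 0, 0, 0, 0]
def nm : List (List ℕ) := [[34, 33, 16, 33, 2, 18, 10, 6], [15, 8, 30, 35, 8, 35, 2, 18, 12]]
def nc : List (List ℕ) := [[1, 3, 9, 27, 81], [1, 18, 6, 27, 185], [1, 9, 3, 97, 44], [1, 27, 44, 81, 3], [1, 113, 227, 162, 185], [18, 27, 97, 1, 113], [6, 147, 127, 97, 44]]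

/-- The elements of the elementary group. -/
noncomputable def W3 : ℕ → List ℕ := dw 3 A5
/-- The eleven elements. -/
noncomputable def yw (i : ℕ) : List ℕ := W3 (nth 0 yc i)
/-- Union of sets. -/
noncomputable def orN (n : ℕ) (f : ℕ → ℕ) : ℕ := Nat.rec 0 (fun i ih => Nat.lor ih (f i)) n
/-- The word normalises the elementary group. -/
noncomputable def norB (w : List ℕ) (j : ℕ) : Bool := allN 5 fun i => (fun k => Nat.blt k 243 &&
  eqM mA (W3 k) (cjw w (nth [] A5 i))) (nth 0 (nth [] nc j) i)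

theorem orN_sound {f : ℕ → ℕ} {q : ℕ} : ∀ {n : ℕ}, (orN n f).testBit q = true →
    ∃ i < n, (f i).testBit q = true
  | 0, h => absurd h (by simp [orN])
  | n + 1, h => by
    rcases Bool.or_eq_true_iff.1 ((testBit_lor' _ _ _).symm.trans h) with h | h
    · obtain ⟨i, h1, h2⟩ := orN_sound h
      exact ⟨i, by omega, h2⟩
    · exact ⟨n, by omega, h⟩

theorem w3_ok : allN 243 (fun k => okM mA (W3 k) && (Nat.beq k 0 || neM mA (W3 k)) &&
    nqM mA (W3 k) (cjw [4, 12, 10] [17])) = true := by decide +kernel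
theorem cov_ok : (orN 22 fun j => orN 243 fun k => Nat.shiftLeft 1 (rn (W3 k) (nth 0 r22 j))) =
    2 ^ 1782 - 1 := by decide +kernel
theorem fix_ok : allN 22 (fun j => Nat.blt (nth 0 r22 j) 1782 && allN 243 fun k => Nat.beq k 0 ||
    L22.elem k || !Nat.beq (rn (W3 k) (nth 0 r22 j)) (nth 0 r22 j)) = true := by decide +kernel
theorem rel_ok : allL (fun r => anyN 3 fun k => eqM mA (powW [14] k) (expand 0 gw r))
    ([6, 6] :: [8, 8] :: rels) = true := by decide +kernel
theorem nor_ok : allN 5 (fun j => norB (nth [] gw (j + 2)) j) = true := by decide +kernel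
theorem nm_ok : allN 2 (fun j => norB (nth [] nm j) (j + 5) && allN 24 fun i => (fun k =>
    eqM mA (cjw (nth [] nm j) (yw i)) (yw k) || eqM mA (cjw (nth [] nm j) (yw i)) (iw (yw k)))
      (Mathieu.app (nth 0 Mathieu.gens11 j) i)) = true := by decide +kernel
theorem yw_ok : allN 24 (fun i => Nat.blt (nth 0 yc i) 243 && (!Nat.testBit 340830 i ||
    neM mA (yw i) && allN 24 fun j => Nat.beq i j || nqM mA (yw i) (yw j) &&
      nqM mA (yw i) (iw (yw j)))) = true := by decide +kernel

theorem max_hs {g : ℕ → G} (hi : InvOk g im) (hr : ∀ r ∈ rels, ev g r = 1) (hne : g 0 ≠ 1)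
    (hc : Nat.card G = 3265920) {M : Subgroup G} (hM : ∀ w ∈ hs, ev g w ∈ M) :
    Nat.card M = 29160 ∨ M = ⊤ := by
  have : Finite G := Nat.finite_of_card_ne_zero (by omega)
  have hb := bound (model.inv.prod hi) fun r h => by rw [ev_prod, hr r h, model.rel r h]; rfl
  have := hb.1
  have b1 := (genFst_surjective ng g top).bijective_of_nat_card_le (hb.2.trans card_PM.ge)
  have := (MulEquiv.ofBijective _ b1).isSimpleGroup
  let p := (MonoidHom.snd _ G).comp (gen (fun i => (ng i, g i)) top).subtype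
  have i2 : Function.Injective p := (MonoidHom.ker_eq_bot_iff p).1
    (p.normal_ker.eq_bot_or_eq_top.resolve_right fun h =>
      hne (h.ge (mem_top ⟨_, mem_gen_of_letter (i := 0) _ (by decide)⟩)))
  have b2 := i2.bijective_of_nat_card_le (by rw [Nat.card_eq_of_bijective _ b1, card_PM, hc])
  have c : Nat.card ((M.comap p).map (PM.subtype.comp (genFst ng g top))) = Nat.card M := by
    rw [card_map_of_injective (f := PM.subtype.comp (genFst ng g top))
      (PM.subtype_injective.comp b1.1), ← card_map_of_injective i2,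
      map_comap_eq_self_of_surjective b2.2]
  refine (setting.maxB_sound model.inv subs_ok le_rfl (fun _ hw => ev_mem_gen ng hw) (hs_le ng)
    stab_top.1 (by rw [orb_top, bset_full]) ((M.comap p).map (PM.subtype.comp (genFst ng g top)))
    (gen_le.2 fun w hw => ⟨⟨_, hs_le _ (ev_mem_gen _ hw)⟩, ?_, congrArg Prod.fst (ev_prod ..)⟩)
    (by rintro _ ⟨a, -, rfl⟩; exact Subtype.prop _)).imp (fun e => by rw [← c, e, card_hs])
    fun e => eq_top_of_card_eq _ (by rw [← c, e, card_PM, hc])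
  change (ev (fun i => (ng i, g i)) w).2 ∈ M
  rw [ev_prod]; exact hM w hw

namespace SM

variable {X : ℕ → G} {φ : G →* Equiv.Perm ℕ} (m : SM X φ)
include m

theorem comm3 : ∀ u ∈ A5, ∀ v ∈ A5, Commute (ev X u) (ev X v) := fun u hu v hv =>
  (ev_append ..).symm.trans ((m.tm.eq (by revert u v; decide +kernel)).trans (ev_append ..))

theorem pow3 : ∀ u ∈ A5, ev X u ^ 3 = 1 := fun u hu =>
  (ev_powW ..).symm.trans (m.tm.id (by revert u; decide +kernel))

theorem spec3 : (∀ g, g ∈ gen X A5 ↔ ∃ k < 243, ev X (W3 k) = g) ∧ Nat.card (gen X A5) = 243 :=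
  have h := dw_spec m.comm3 m.pow3
  ⟨h.1, h.2 fun k hk e => by
    have := allN_sound w3_ok k hk
    simp only [Bool.and_eq_true, Bool.or_eq_true, Nat.beq_eq] at this
    exact this.1.2.resolve_right fun h => m.tm.ne h e⟩

theorem elem3 : Cfsg.IsElementaryAbelian 3 (gen X A5) := by
  have h : IsMulCommutative (gen X A5) := isMulCommutative_closure (by
    rintro _ ⟨u, hu, rfl⟩ _ ⟨v, hv, rfl⟩; exact m.comm3 u hu v hv)
  refine ⟨h, fun a ha => ?_⟩
  induction ha using closure_induction with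
  | mem a h => obtain ⟨u, hu, rfl⟩ := h; exact m.pow3 u hu
  | one => simp
  | mul a b ha hb h1 h2 =>
    rw [Commute.mul_pow (setLike_mul_comm (s := gen X A5) ha hb), h1, h2, mul_one]
  | inv a _ h => rw [inv_pow, h, inv_one]

theorem norB_sound {w : List ℕ} {j : ℕ} (h : norB w j = true) :
    ev X w ∈ normalizer (gen X A5 : Set G) :=
  have := m.finite
  mem_normalizer_gen fun u hu => by
    obtain ⟨i, hi, rfl⟩ : ∃ i < 5, nth [] A5 i = u := by revert u; decide +kernel
    obtain ⟨h1, h2⟩ := Bool.and_eq_true_iff.1 (allN_sound h i hi)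
    exact (m.spec3.1 _).2 ⟨_, Nat.blt_eq ▸ h1, by rw [m.tm.eq h2, ev_cjw]⟩

theorem conj_y {g : G} (hg : g ∈ normalizer (gen X A5 : Set G)) :
    g * X 7 * g⁻¹ ∈ L22.map fun k => ev X (W3 k) := by
  have ok := fun k hk => (Bool.and_eq_true_iff.1 (Bool.and_eq_true_iff.1
    (allN_sound w3_ok k hk)).1).1
  rw [← ev_single X 7]
  have h0 := (mem_normalizer_iff.1 hg _).1 (ev_mem_gen X (show [2 * 7] ∈ A5 by decide))
  obtain ⟨k, hk, e⟩ := (m.spec3.1 _).1 h0
  have l := m.lt g 0 (by norm_num)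
  obtain ⟨j, hj, h⟩ := orN_sound (q := φ g 0) (by
    rw [cov_ok, Nat.testBit_two_pow_sub_one]; exact decide_eq_true l)
  obtain ⟨i, hi, h⟩ := orN_sound h
  obtain ⟨h1, h2⟩ := Bool.and_eq_true_iff.1 (allN_sound fix_ok j hj)
  rw [Nat.blt_eq] at h1
  rw [testBit_one_shiftLeft, decide_eq_true_eq, m.rn_eq (ok i hi) h1, map_inv,
    Equiv.Perm.inv_eq_iff_eq] at h
  have h3 := allN_sound h2 k hk
  have := m.elem3.1
  rw [(m.fix_iff (ok k hk) h1).2 (by
    rw [h, ← Equiv.Perm.mul_apply, ← map_mul, setLike_mul_comm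
      ((m.spec3.1 _).2 ⟨k, hk, rfl⟩) ((m.spec3.1 _).2 ⟨i, hi, rfl⟩), e]
    simp [(m.fix_iff (w := [14]) (p := 0) (by decide +kernel) (by norm_num)).1 (by decide +kernel)])]
    at h3
  simp only [Bool.or_eq_true, Nat.beq_eq, Bool.not_true, Bool.false_eq_true, or_false] at h3
  refine List.mem_map.2 ⟨k, List.mem_of_elem_eq_true (h3.resolve_left ?_), e⟩
  rintro rfl
  exact m.tm.ne (by decide +kernel) (conj_eq_one_iff.1 e.symm)

theorem card_nor (h : Y3 (X 7)) : Nat.card (normalizer (gen X A5 : Set G)) ≤ 1924560 := by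
  have := m.finite
  have t := m.tm
  obtain ⟨θ, h1, h2⟩ := h.hom
  have y : zpowers (X 7) ≤ normalizer (gen X A5 : Set G) := (zpowers_le_of_mem
    (ev_single X 7 ▸ ev_mem_gen X (by decide))).trans le_normalizer
  let c : ℕ → centralizer (zpowers (X 7) : Set G) := fun i => ⟨ev X (nth [] gw i),
    mem_cent_zpowers.2 (nth_prop (P := fun w => Commute (ev X w) (X 7)) (d := [])
      (Commute.one_left _) (fun w hw => by
        have := t.eq (u := w ++ [14]) (v := [14] ++ w) (by revert w; decide +kernel)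
        rwa [ev_append, ev_append, ev_single X 7] at this) i)⟩
  have r : ∀ r ∈ [6, 6] :: [8, 8] :: rels, ev (fun i => θ (c i)) r = 1 := fun r hr => by
    obtain ⟨k, -, e⟩ := anyN_sound (allL_sound rel_ok r hr)
    rw [← map_ev, ← MonoidHom.mem_ker, h2, mem_subgroupOf]
    have := t.eq e
    rw [ev_powW, ev_expand (invOk_zero X), ev_single X 7] at this
    exact ⟨k, (zpow_natCast ..).trans (this.trans (map_ev (Subgroup.subtype _) c r).symm)⟩
  have h3 := (max_hs (g := fun i => θ (c i)) (M := ((normalizer (gen X A5 : Set G)).subgroupOf _).map θ)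
    (invOk_imOf fun i hi => by
      have := r [2 * i, 2 * i] (by revert i; decide)
      rwa [ev_cons, ev_one, evL_two_mul] at this) (fun _ h => r _ (by simp [h]))
    (fun e => by
      obtain ⟨k, hk⟩ := h2.le e
      refine t.nq (u := cjw [4, 12, 10] [17]) (v := [17]) (by decide +kernel) ?_
      rw [ev_cjw, conj_eq_of_comm]
      change Commute (c 0 : G) _
      rw [← show X 7 ^ k = (c 0 : G) from hk, ← ev_single X 7]
      exact (m.comm3 _ (by decide) _ (by decide)).zpow_left k) card_PM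
    fun w hw => ev_mem fun l hl => by
      obtain ⟨j, hj, e⟩ : ∃ j < 5, l / 2 = j + 2 := by revert l w; decide
      exact e ▸ mem_map_of_mem _ (m.norB_sound (allN_sound nor_ok j hj))).resolve_right fun e => by
    have h4 : c 0 ∈ (normalizer (gen X A5 : Set G)).subgroupOf _ := by
      rw [← comap_map_eq_self (f := θ) (H := subgroupOf _ _) (h2 ▸ comap_mono y), e]; trivial
    obtain ⟨k, hk, e⟩ := (m.spec3.1 _).1 ((mem_normalizer_iff.1 h4 _).1
      (ev_mem_gen X (show [17] ∈ A5 by decide)))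
    exact t.nq (Bool.and_eq_true_iff.1 (allN_sound w3_ok k hk)).2 (e.trans (ev_cjw ..).symm)
  have h4 := card_inf_mul_relIndex θ.ker ((normalizer (gen X A5 : Set G)).subgroupOf _)
  have h5 := card_le_of_le (inf_le_right (a := (normalizer (gen X A5 : Set G)).subgroupOf _)
    (b := θ.ker))
  rw [relIndex_ker, h3, ← inf_subgroupOf_right,
    Nat.card_congr (subgroupOfEquivOfLe inf_le_right).toEquiv] at h4
  rw [h2, Nat.card_congr (subgroupOfEquivOfLe (zpowers_le_of_mem (mem_cent_zpowers.2 rfl))).toEquiv,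
    Nat.card_zpowers, h.ord, ← h2, ← inf_subgroupOf_right] at h5
  have h6 := card_le_mul' _ (centralizer (zpowers (X 7) : Set G)) _ _ (fun g => m.conj_y)
    fun k _ l _ e => mem_cent_zpowers.2 (Amalg.commute_of_conj_eq e.symm)
  rw [List.length_map, show L22.length = 22 from rfl] at h6
  omega

theorem three (h : Y3 (X 7)) : centralizer (gen X A5 : Set G) = gen X A5 ∧
    Cfsg.Spor.IsoM11 (normalizer (gen X A5 : Set G) ⧸ (gen X A5).subgroupOf _) := by
  have := m.finite
  have t := m.tm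
  let Z := fun p => zpowers (ev X (yw (ix p)))
  have z : ∀ g a : G, MulAut.conj g • zpowers a = zpowers (g * a * g⁻¹) := fun g a =>
    MonoidHom.map_zpowers ..
  have y : ∀ p, ev X (yw (ix p)) ∈ gen X A5 := fun p => (m.spec3.1 _).2
    ⟨_, Nat.blt_eq ▸ (Bool.and_eq_true_iff.1 (allN_sound yw_ok _ (ix_lt p))).1, rfl⟩
  let R : Subgroup (normalizer (gen X A5 : Set G) × Cfsg.Spor.M11) :=
    { carrier := {a | ∀ p, MulAut.conj (a.1 : G) • Z p = Z (a.2.1 p)}
      one_mem' := fun p => by simp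
      mul_mem' := fun {a b} ha hb p => by
        rw [Prod.fst_mul, coe_mul, map_mul, mul_smul, hb p, ha]; rfl
      inv_mem' := fun {a} ha p => by
        rw [Prod.fst_inv, coe_inv, map_inv, inv_smul_eq_iff, ha]; simp }
  let p1 := (MonoidHom.fst _ _).comp R.subtype
  let p2 := (MonoidHom.snd _ _).comp R.subtype
  have i1 : Function.Injective p1 := (injective_iff_map_eq_one p1).2 fun a e =>
    Subtype.ext (Prod.ext e (Subtype.ext (Mathieu.M11_eq_one_of_fix a.1.2.2 fun p hp => by
      have h1 := a.2 p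
      rw [show a.1.1 = 1 from e, coe_one, map_one, one_smul] at h1
      obtain ⟨k, hk⟩ := h1.le (mem_zpowers _)
      have h2 := (Bool.and_eq_true_iff.1 (allN_sound yw_ok _ (ix_lt p))).2
      rw [mem_ofMask.1 hp, Bool.not_true, Bool.false_or, Bool.and_eq_true] at h2
      have h3 := allN_sound h2.2 _ (ix_lt (a.1.2.1 p))
      rw [Bool.or_eq_true, Nat.beq_eq, Bool.and_eq_true] at h3
      refine (pt_ix _).symm.trans ((congrArg pt (h3.resolve_right fun h3 => ?_).symm).trans (pt_ix p))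
      rcases zpow_cases (m.elem3.2 _ (y _)) k with e | e | e
      exacts [t.ne h2.1 (hk.symm.trans e), t.nq h3.1 (hk.symm.trans e),
        t.nq h3.2 (hk.symm.trans (e.trans (ev_iw ..).symm))])))
  have s2 : Function.Surjective p2 := fun σ => by
    obtain ⟨a, e⟩ := Mathieu.M11_le (H := ((Subgroup.subtype _).comp p2).range) (fun a ha => by
      obtain ⟨j, hj, rfl⟩ : ∃ j < 2, nth 0 Mathieu.gens11 j = a := by revert a; decide +kernel
      obtain ⟨τ, h1, h2⟩ := Mathieu.has_gens11 _ ha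
      obtain ⟨h3, h4⟩ := Bool.and_eq_true_iff.1 (allN_sound nm_ok j hj)
      refine ⟨τ, ⟨⟨(⟨_, m.norB_sound h3⟩, ⟨τ, h1⟩), fun p => ?_⟩, rfl⟩, h2⟩
      have h5 := allN_sound h4 _ (ix_lt p)
      rw [← h2, Mathieu.app_code_ix, Bool.or_eq_true] at h5
      rw [z, ← ev_cjw]
      rcases h5 with h5 | h5 <;> rw [t.eq h5]
      rw [ev_iw, zpowers_inv]) σ.2
    exact ⟨a, Subtype.ext e⟩
  have k : ∀ c (hc : c ∈ centralizer (gen X A5 : Set G)),
      (⟨c, centralizer_le_normalizer _ hc⟩, 1) ∈ R := fun c hc p => by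
    rw [z, conj_eq_of_comm (hc _ (y p)).symm]; rfl
  have le : gen X A5 ≤ centralizer (gen X A5 : Set G) := have := m.elem3.1; le_centralizer _
  have c1 := Nat.card_le_card_of_injective (fun c : centralizer (gen X A5 : Set G) =>
    (⟨⟨_, k c c.2⟩, rfl⟩ : p2.ker)) fun a b e => Subtype.ext (congrArg (·.1.1.1.1) e)
  have c2 := p2.ker.card_mul_index
  have c3 := Nat.card_le_card_of_injective _ i1
  have c4 := m.card_nor h
  have c5 := card_le_of_le le
  have c6 := m.spec3.2
  rw [index_ker, MonoidHom.range_eq_top.2 s2, card_top, Mathieu.card_M11] at c2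
  let e := MulEquiv.ofBijective p1 (i1.bijective_of_nat_card_le (by omega))
  have s3 : Function.Surjective (p2.comp e.symm.toMonoidHom) := s2.comp e.symm.surjective
  have c7 := (p2.comp e.symm.toMonoidHom).ker.card_mul_index
  rw [index_ker, MonoidHom.range_eq_top.2 s3, card_top, Mathieu.card_M11] at c7
  refine ⟨(eq_of_le_of_card_ge le (by omega)).symm, ⟨(QuotientGroup.quotientMulEquivOfEq
    (eq_of_le_of_card_ge (fun a ha => ?_) ?_)).trans
    (QuotientGroup.quotientKerEquivOfSurjective _ s3)⟩⟩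
  · change p2 (e.symm a) = 1
    rw [show e.symm a = ⟨_, k a (le ha)⟩ from e.symm_apply_eq.2 rfl]; rfl
  · rw [Nat.card_congr (subgroupOfEquivOfLe le_normalizer).toEquiv]; omega

end SM

end CfsgLib.SuzRec
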